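import Mathlib
import Cfsg.Agent.PLOC.ZJF.QLem
import Cfsg.Agent.FUS.QdFus
import Cfsg.Prelude.Def_LocalEven

/-!
Recognition of sections isomorphic to Glauberman's group `F(p)`.
-/

set_option autoImplicit false

namespace CL.ZJF

open Cfsg Subgroup Matrix CL.Dickson CL.Sec CL.Quad CL.Qd Multiplicative
open scoped MatrixGroups

variable {p : ℕ} [hp : Fact p.Prime] {G : Type*} [Group G] [Finite G]

theorem involves_fOver_of_natural (hp2 : p ≠ 2) (σ : G →* SL(2, ZMod p))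
    (i : Multiplicative (Fin 2 → ZMod p) →* G) (hσ : ∀ A : SL(2, ZMod p), A 1 0 = 0 → ∃ g, σ g = A)
    (hi : Function.Injective i)
    (h : ∀ (g : G) (w : Fin 2 → ZMod p), g * i (ofAdd w) * g⁻¹ = i (ofAdd (σ g • w))) :
    Involves (fOver (ZMod p)) G := by
  have : Fact (Nat.Prime 2) := ⟨Nat.prime_two⟩
  let Z : Subgroup G := (center SL(2, ZMod p)).comap σ
  obtain ⟨T, hT⟩ := MSS.exists_sylIn 2 Z
  obtain ⟨t, ht, hσt⟩ : ∃ t ∈ T, σ t = -1 := by
    have hc : IsPGroup 2 (center SL(2, ZMod p)) := by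
      rintro ⟨x, hx⟩
      refine ⟨1, Subtype.ext ?_⟩
      rcases (mem_center_iff'' x).1 hx with rfl | rfl <;> simp
    obtain ⟨g, hg⟩ := hσ (-1) (by simp)
    exact ((hT.map σ).eq_of_isPGroup (hc.to_le (map_comap_le _ _))).ge
      ⟨g, show σ g ∈ _ from hg ▸ (mem_center_iff'' _).2 (Or.inr rfl), hg⟩
  set N : Subgroup G := normalizer (T : Set G)
  have hσN : ∀ g, ∃ n : N, σ n = σ g := fun g => by
    obtain ⟨m, hm, n, hn, rfl⟩ := hT.frattini (x := g) (le_normalizer_of_normal (mem_top g))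
    rcases (mem_center_iff'' _).1 hm with h | h
    · exact ⟨⟨n, hn⟩, by rw [map_mul, h, one_mul]⟩
    · exact ⟨⟨t * n, mul_mem (le_normalizer ht) hn⟩, by rw [map_mul, map_mul, h, hσt]⟩
  have hdisj : ∀ (w : Multiplicative (Fin 2 → ZMod p)) (n : N), i w = (n : G) → w = 1 := by
    intro w n hw
    have h1 : t * ((n : G) * t⁻¹ * (n : G)⁻¹) ∈ T :=
      mul_mem ht ((mem_normalizer_iff.1 n.2 _).1 (inv_mem ht))
    have h2 : t * ((n : G) * t⁻¹ * (n : G)⁻¹) = i (w⁻¹ * w⁻¹) := by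
      have := h t (toAdd w)
      rw [hσt, neg_one_smul', ofAdd_neg, ofAdd_toAdd] at this
      rw [map_mul]
      nth_rewrite 1 [← this]
      rw [map_inv, hw]
      simp [mul_assoc]
    obtain ⟨k, hk⟩ := MSS.isPGroup_iff_forall_mem.1 hT.pgroup _ h1
    rw [h2, ← map_pow, ← map_one i, hi.eq_iff, ← pow_two, ← pow_mul, ← pow_succ'] at hk
    simpa using (pow_eq_one_iff_of_coprime (((Nat.coprime_primes Nat.prime_two hp.out).2
      hp2.symm).pow_left (k + 1))).1 ⟨hk, mult_pow_p w⁻¹⟩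
  let φ : N →* MulAut (Multiplicative (Fin 2 → ZMod p)) :=
    { toFun := fun n => AddEquiv.toMultiplicative
        (DistribMulAction.toAddEquiv (Fin 2 → ZMod p) (σ n))
      map_one' := by ext w : 1; apply toAdd.injective; simp
      map_mul' := fun a b => by ext w : 1; apply toAdd.injective; simp [mul_smul] }
  let f₁ : Multiplicative (Fin 2 → ZMod p) ⋊[φ] N →* G :=
    SemidirectProduct.lift i N.subtype fun n => MonoidHom.ext fun w => (h n (toAdd w)).symm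
  let f₂ : Multiplicative (Fin 2 → ZMod p) ⋊[φ] N →* qd p :=
    SemidirectProduct.lift trans (emb.comp (σ.comp N.subtype)) fun n =>
      MonoidHom.ext fun w => (mk3_conj _ _ (toAdd w)).symm
  have hf₁ : Function.Injective f₁ := by
    rw [injective_iff_map_eq_one]
    rintro ⟨w, n⟩ hx
    have h1 : i w * (n : G) = 1 := hx
    obtain rfl : w = 1 := hdisj w n⁻¹ (eq_inv_of_mul_eq_one_left h1)
    rw [map_one, one_mul] at h1
    obtain rfl : n = 1 := Subtype.ext h1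
    rfl
  refine involves_trans (involves_of_le (L := ((qd p).subtype.comp f₂).range) ((closure_le _).2
    fun M hM => ?_)) (involves_trans (involves_of_surjective _ (MonoidHom.rangeRestrict_surjective _))
      (involves_of_injective f₁ hf₁))
  obtain ⟨A, v, e⟩ := exists_mk3 ⟨M, mem_qd.2 hM.2⟩
  obtain ⟨g, hg⟩ := hσ A ((congrArg (fun x : qd p => (x : SL(3, ZMod p)) 1 0) e).symm.trans hM.1)
  obtain ⟨n, hn⟩ := hσN g
  refine ⟨⟨ofAdd v, n⟩, ?_⟩
  change ((mk3 1 v * mk3 (σ n) 0 : qd p) : SL(3, ZMod p)) = _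
  rw [mk3_mul, one_mul, smul_zero, add_zero, hn, hg, ← e]

open CL.Fus in
theorem FGrp.involves (hp2 : p ≠ 2) {H U : Subgroup G} (h : FGrp p H U) (hU : U ≤ H) :
    Involves (fOver (ZMod p)) H := by
  obtain ⟨B, hBU, π, h1, h2, h⟩ := h
  let N : Subgroup G :=
    { carrier := {g | g ∈ Subgroup.normalizer (B : Set G) ⊓ H ∧
        ∃ A : SL(2, ZMod p), ∀ x ∈ B, π (cj g x) = ofAdd (A • toAdd (π x))}
      one_mem' := ⟨Subgroup.one_mem _, 1, fun x _ => by rw [cj_one, one_smul, ofAdd_toAdd]⟩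
      mul_mem' := fun {a b} ⟨ha, A, eA⟩ ⟨hb, C, eC⟩ => ⟨Subgroup.mul_mem _ ha hb, A * C, fun x hx => by
        rw [cj_mul, eA _ (cj_mem_of_mem_normalizer hb.1 hx), eC x hx, toAdd_ofAdd, mul_smul]⟩
      inv_mem' := fun {a} ⟨ha, A, eA⟩ => ⟨Subgroup.inv_mem _ ha, A⁻¹, fun x hx => by
        have := eA _ (cj_mem_of_mem_normalizer (Subgroup.inv_mem _ ha.1) hx)
        rw [cj_cj_inv] at this
        rw [this, toAdd_ofAdd, inv_smul_smul, ofAdd_toAdd]⟩ }
  have huniq : ∀ {g : G} {A C : SL(2, ZMod p)}, (∀ x ∈ B, π (cj g x) = ofAdd (A • toAdd (π x))) →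
      (∀ x ∈ B, π (cj g x) = ofAdd (C • toAdd (π x))) → A = C := fun hA hC =>
    sl2_eq_of_smul fun w => by
      obtain ⟨x, hx, e⟩ := h2 (ofAdd w)
      have := (hA x hx).symm.trans (hC x hx)
      rwa [e, toAdd_ofAdd, ofAdd.apply_eq_iff_eq] at this
  let σ : N →* SL(2, ZMod p) := MonoidHom.mk' (fun g => g.2.2.choose) fun a b =>
    huniq (a * b).2.2.choose_spec fun x hx => by
      rw [Subgroup.coe_mul, cj_mul, a.2.2.choose_spec _ (cj_mem_of_mem_normalizer b.2.1.1 hx),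
        b.2.2.choose_spec x hx, toAdd_ofAdd, mul_smul]
  have hσ : ∀ g : N, ∀ x ∈ B, π (cj g x) = ofAdd (σ g • toAdd (π x)) := fun g => g.2.2.choose_spec
  have hB : ∀ b ∈ B, ∀ x ∈ B, π (cj b x) = ofAdd ((1 : SL(2, ZMod p)) • toAdd (π x)) :=
    fun b hb x hx => by
      rw [h1.map_cj hb hx, cj_apply, mul_comm (π b), mul_inv_cancel_right, one_smul, ofAdd_toAdd]
  have hBN : B ≤ N := fun b hb => ⟨⟨Subgroup.le_normalizer hb, hU (hBU hb)⟩, 1, hB b hb⟩
  let C : Subgroup N := (h1.preim ⊥).subgroupOf N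
  have hC : ∀ {g : N}, g ∈ C ↔ (g : G) ∈ B ∧ π g = 1 := Iff.rfl
  have : C.Normal := ⟨fun n hn g => hC.2 ⟨cj_mem_of_mem_normalizer g.2.1.1 (hC.1 hn).1, by
    have := hσ g n (hC.1 hn).1
    rw [(hC.1 hn).2, toAdd_one, smul_zero, ofAdd_zero] at this
    exact this⟩⟩
  let σ' : N ⧸ C →* SL(2, ZMod p) := QuotientGroup.lift C σ fun g hg =>
    huniq (hσ g) (hB g (hC.1 hg).1)
  choose s hs es using h2
  have hmk : ∀ x (hx : x ∈ B), (QuotientGroup.mk ⟨s (π x), hBN (hs _)⟩ : N ⧸ C) =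
      QuotientGroup.mk ⟨x, hBN hx⟩ := fun x hx => by
    rw [QuotientGroup.eq]
    refine hC.2 ⟨B.mul_mem (B.inv_mem (hs _)) hx, ?_⟩
    show π ((s (π x))⁻¹ * x) = 1
    rw [h1.map_mul (B.inv_mem (hs _)) hx, h1.map_inv (hs _), es, inv_mul_cancel]
  let i : Multiplicative (Fin 2 → ZMod p) →* N ⧸ C :=
    MonoidHom.mk' (fun w => QuotientGroup.mk ⟨s w, hBN (hs w)⟩) fun a b => by
      rw [← QuotientGroup.mk_mul]
      have := hmk _ (B.mul_mem (hs a) (hs b))
      simp only [h1.map_mul (hs a) (hs b), es] at this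
      exact this
  have hi : ∀ w, i w = QuotientGroup.mk ⟨s w, hBN (hs w)⟩ := fun _ => rfl
  refine involves_mono (K := N) (involves_of_quotient (N := C)
    (involves_fOver_of_natural hp2 σ' i (fun A hA => ?_) ?_ fun g w => ?_)) fun g hg => hg.1.2
  · obtain ⟨g, hg, hm, e⟩ := h A hA
    have hg' : g ∈ N := ⟨⟨mem_normalizer_of_cj_mem hm, hg⟩, A, e⟩
    exact ⟨QuotientGroup.mk ⟨g, hg'⟩, huniq (hσ ⟨g, hg'⟩) e⟩
  · rw [injective_iff_map_eq_one]
    intro w hw
    rw [hi, QuotientGroup.eq_one_iff] at hw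
    rw [← es w]
    exact (hC.1 hw).2
  · obtain ⟨g, rfl⟩ := QuotientGroup.mk_surjective g
    have h3 := hmk _ (cj_mem_of_mem_normalizer g.2.1.1 (hs (ofAdd w)))
    simp only [hσ g _ (hs (ofAdd w)), es, toAdd_ofAdd] at h3
    exact h3.symm

end CL.ZJF
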