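import Mathlib
import Cfsg.Agent.PLOC.ZJF.Real
import Cfsg.Agent.PLOC.ZJF.FInv

/-!
`F(p)`-sections of a saturated fusion system are detected in the normalizer of `Z(J(S))` (`p` odd).
-/

set_option autoImplicit false

namespace CL.ZJF

open Cfsg Cfsg.FusionSystem CL.Fus Multiplicative
open scoped MatrixGroups

universe u

section Defs

variable {Ω Ω' : Type*} [Group Ω] [Group Ω'] {S K U : Subgroup Ω} {S' U' : Subgroup Ω'} {p : ℕ}
  {F : FusionSystem S} {t : Ω → Ω'}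

/-- Some `B` has a quotient `(ℤ/p)²` on which maps in `M` induce the upper triangular matrices. -/
def FSec (p : ℕ) (M : Subgroup Ω → (Ω → Ω) → Prop) : Prop :=
  ∃ (B : Subgroup Ω) (π : Ω → Multiplicative (Fin 2 → ZMod p)), IsHomOn B π ∧ (∀ w, ∃ x ∈ B, π x = w) ∧
    ∀ A : SL(2, ZMod p), A 1 0 = 0 → ∃ f, M B f ∧ (∀ x ∈ B, f x ∈ B) ∧
      ∀ x ∈ B, π (f x) = ofAdd (A • toAdd (π x))

theorem FSec.mono {M M' : Subgroup Ω → (Ω → Ω) → Prop} (h : FSec p M) (H : ∀ P f, M P f → M' P f) :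
    FSec p M' := by
  obtain ⟨B, π, h1, h2, h⟩ := h
  exact ⟨B, π, h1, h2, fun A hA => (h A hA).imp fun f hf => ⟨H _ _ hf.1, hf.2⟩⟩

theorem fSec_normSys {Y : Subgroup Ω} {hY : Y ≤ S} : FSec p (Mor (normSys F Y hY)) ↔ FSec p (NMor F Y) :=
  ⟨fun h => h.mono fun _ _ => mor_normSys.1, fun h => h.mono fun _ _ => mor_normSys.2⟩

theorem fSec_of_qdSec (h : QdSec p F) : FSec p (Mor F) := by
  obtain ⟨B, π, h1, h2, h⟩ := h
  exact ⟨B, π, h1, h2, fun A _ => h A⟩

theorem FSec.lift {E : FusionSystem U} {E' : FusionSystem U'} (hs : SurjOn S K S' t) (hU : U ≤ S)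
    (hU' : U' ≤ S')
    (H : ∀ P' f', Mor E' P' f' → ∃ f, Mor E (hs.pre P') f ∧ ∀ x ∈ hs.pre P', f' (t x) = t (f x))
    (h : FSec p (Mor E')) : FSec p (Mor E) := by
  obtain ⟨B, π, h1, h2, h⟩ := h
  have hle : B ≤ S' := (h 1 rfl).choose_spec.1.le.trans hU'
  refine ⟨hs.pre B, π ∘ t, h1.comp (hs.hom.mono (hs.pre_le _)) fun x hx => hx.2, fun w => ?_,
    fun A hA => ?_⟩
  · obtain ⟨y, hy, rfl⟩ := h2 w
    obtain ⟨x, hx, rfl⟩ := hs.surj (hle hy)
    exact ⟨x, ⟨hx, hy⟩, rfl⟩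
  · obtain ⟨f', hf', hm, e⟩ := h A hA
    obtain ⟨f, hf1, e1⟩ := H _ _ hf'
    refine ⟨f, hf1, fun x hx => ⟨hU (hf1.map_mem hx), e1 x hx ▸ hm _ hx.2⟩, fun x hx => ?_⟩
    simp only [Function.comp, ← e1 x hx, e _ hx.2]

theorem FSec.conj [Finite S] {X : Subgroup Ω} (h : FSec p (NMor F X)) {g : Ω → Ω}
    (hg : Mor F (normalizerIn S X) g) : FSec p (NMor F (img g X)) := by
  obtain ⟨B, π, h1, h2, h⟩ := h
  have hgB := hg.mono (h 1 rfl).choose_spec.1.1
  obtain ⟨g', hg', e1, e2⟩ := hgB.exists_inv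
  refine ⟨img g B, π ∘ g', h1.comp hg'.isHomOn fun y hy => (e2 y hy).1, fun w => ?_, fun A hA => ?_⟩
  · obtain ⟨x, hx, rfl⟩ := h2 w
    exact ⟨g x, mem_img_of_mem g hx, by simp only [Function.comp, e1 x hx]⟩
  · obtain ⟨f, hf, hm, e⟩ := h A hA
    obtain ⟨k, hk, ek⟩ := hf.conj hg
    refine ⟨k, hk, fun y hy => ?_, fun y hy => ?_⟩ <;> obtain ⟨x, hx, rfl⟩ := hgB.mem_img.1 hy
    · exact ek x hx ▸ mem_img_of_mem g (hm x hx)
    · simp only [Function.comp, ek x hx, e1 _ (hm x hx), e1 x hx, e x hx]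

theorem FSec.exists_nMor [Finite S] [hp : Fact p.Prime] (h : FSec p (Mor F)) :
    ∃ X, X ≠ ⊥ ∧ X ≤ S ∧ FSec p (NMor F X) := by
  obtain ⟨B, π, h1, h2, h⟩ := h
  have hle : B ≤ S := (h 1 rfl).choose_spec.1.le
  refine ⟨B, fun h0 => ?_, hle, B, π, h1, h2, fun A hA => (h A hA).imp fun f hf =>
    ⟨(nMor_iff_of_le le_rfl (le_normalizerIn hle)).2 ⟨hf.1, hf.1.img_eq_self hf.2.1⟩, hf.2⟩⟩
  obtain ⟨x, hx, e⟩ := h2 (ofAdd 1)
  rw [h0, Subgroup.mem_bot] at hx
  rw [hx, h1.map_one] at e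
  exact zero_ne_one (congrFun (congrArg toAdd e) 0)

theorem FSec.descend [Finite S] [hp : Fact p.Prime] (hp2 : p ≠ 2) (hS : IsPGroup p S)
    (hF : F.IsSaturated p) (hK : F.IsNormal K) (hA : IsPGroup p (F.autGroup K)) {F' : FusionSystem S'}
    (ht : Fac t F K F') (h : FSec p (Mor F)) : FSec p (Mor F') := by
  obtain ⟨B, π, h1, h2, h⟩ := h
  have hle : B ≤ S := (h 1 rfl).choose_spec.1.le
  have h3 : ∀ x ∈ B ⊓ K, π x = 1 := fun x hx => by
    obtain ⟨f, hf, hm, e⟩ := h (-1) (by simp)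
    obtain ⟨s, hs, es⟩ := exists_cj_of_isPGroup_aut hS hF hK hA hf
    have key : ∀ n : ℕ, cj (s ^ n) x ∈ B ⊓ K ∧ π (cj (s ^ n) x) = π x ^ (-1 : ℤ) ^ n := fun n => by
      induction n with
      | zero => simpa [cj_one] using hx
      | succ n ih =>
        rw [pow_succ', cj_mul]
        refine ⟨⟨es _ ih.1.1 ih.1.2 ▸ hm _ ih.1.1,
          cj_mem_of_mem_normalizer (sc_le_normalizer (sc_of_normal hK) hs) ih.1.2⟩, ?_⟩
        rw [← es _ ih.1.1 ih.1.2, e _ ih.1.1, Qd.neg_one_smul', ofAdd_neg, ofAdd_toAdd, ih.2, pow_succ,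
          zpow_mul, zpow_neg_one]
    obtain ⟨k, hk⟩ := MSS.isPGroup_iff_forall_mem.1 hS s hs
    have h4 := (key (p ^ k)).2
    rw [hk, cj_one, (hp.out.odd_of_ne_two hp2).pow.neg_one_pow, zpow_neg_one, eq_inv_iff_mul_eq_one,
      ← pow_two] at h4
    exact (pow_eq_one_iff_of_coprime ((Nat.coprime_primes Nat.prime_two hp.out).2 hp2.symm)).1
      ⟨h4, Qd.mult_pow_p _⟩
  obtain ⟨v, hv, ev⟩ := (ht.surj.mono hle).exists_induced h1 h3
  refine ⟨img t B, v, hv, fun w => ?_, fun A hA => ?_⟩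
  · obtain ⟨x, hx, rfl⟩ := h2 w
    exact ⟨t x, mem_img_of_mem t hx, ev x hx⟩
  · obtain ⟨f, hf, hm, e⟩ := h A hA
    obtain ⟨f', hf', e'⟩ := (ht.morph hS hF (sc_of_normal hK)).mor hf
    refine ⟨f', hf', fun y hy => ?_, fun y hy => ?_⟩ <;>
      obtain ⟨x, hx, rfl⟩ := (ht.surj.mem_img hle).1 hy
    · exact e' x hx ▸ mem_img_of_mem t (hm x hx)
    · rw [e' x hx, ev _ (hm x hx), ev x hx, e x hx]

theorem fSec_group_iff {G : Type*} [Group G] {T Z : Subgroup G} (hZ : Z ≤ T) :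
    FSec p (NMor (groupFusionSystem T) Z) ↔
      FGrp p (Subgroup.normalizer (Z : Set G)) (normalizerIn T Z) := by
  constructor
  · rintro ⟨B, π, h1, h2, h⟩
    refine ⟨B, (h 1 rfl).choose_spec.1.1, π, h1, h2, fun A hA => ?_⟩
    obtain ⟨f, hf, hm, e⟩ := h A hA
    obtain ⟨-, -, g, hg, eg⟩ := mor_ofSubgroup_iff.1 ((nMor_group_iff hZ).1 hf)
    exact ⟨g, hg, fun x hx => eg hx ▸ hm x hx, fun x hx => eg hx ▸ e x hx⟩
  · rintro ⟨B, hB, π, h1, h2, h⟩
    refine ⟨B, π, h1, h2, fun A hA => ?_⟩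
    obtain ⟨g, hg, hm, e⟩ := h A hA
    exact ⟨cj g, (nMor_group_iff hZ).2 (mor_cj_ofSubgroup hg hB fun x hx => hB (hm x hx)), hm, e⟩

end Defs

variable {p : ℕ} [Fact p.Prime] {Ω : Type u} [Group Ω] {S : Subgroup Ω} [Finite S] {F : FusionSystem S}

theorem FSec.centerThompson (hp2 : p ≠ 2) (hS : IsPGroup p S) (hF : F.IsSaturated p) :
    FSec p (Mor F) → FSec p (NMor F (centerThompsonAOf S)) := by
  refine fus_induction (p := p) (fun {Ω} _ {S} F =>
    FSec p (Mor F) → FSec p (NMor F (centerThompsonAOf S))) ?_ F hS hF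
  intro Ω _ S _ F hS hF ih1 ih2 h
  have hw := aFun_centerThompson.{u} p
  have key : ∀ R, R ≤ S → ∀ X, X ≠ ⊥ → X ≤ S → R ≤ normalizerIn S X → FSec p (NMor F X) →
      ∃ X, X ≠ ⊥ ∧ X ≤ S ∧ normalizerIn S X = S ∧ FSec p (NMor F X) := by
    refine induction_lt fun R hR ih X0 hX0 hX0S hle0 h0 => ?_
    obtain ⟨g, hg, hX⟩ := exists_mor_normalizer_fullyNormalized hS hF hX0S
    have h1 := h0.conj hg
    have h2 : img g X0 ≠ ⊥ := by rwa [Ne, hg.img_eq_bot_iff (le_normalizerIn hX0S)]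
    have h3 : Nat.card R ≤ Nat.card (normalizerIn S (img g X0)) := by
      rw [← (hg.mono hle0).card_img]
      exact card_le_of_le ((img_mono g hle0).trans (hg.img_normalizerIn_le (le_normalizerIn hX0S) le_rfl))
        (normalizerIn_le S _)
    generalize img g X0 = X at hX h1 h2 h3
    rcases (normalizerIn_le S X).eq_or_lt with h4 | hlt
    · exact ⟨X, h2, hX.1, h4, h1⟩
    have := finite_of_le hlt.le
    have hN := isPGroup_of_le hS hlt.le
    exact ih _ (normalizerIn_le S _) (h3.trans_lt (Fus.card_lt_of_lt (lt_normalizerIn hS hlt)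
      (normalizerIn_le _ _))) _ (hw.ne_bot hN fun h => h2 (le_bot_iff.1 (h ▸ le_normalizerIn hX.1)))
      ((hw.le _).trans hlt.le) (fun x hx => ⟨hx.1, hw.normalizer_le hN hx.2⟩)
      ((ih1 _ (Fus.card_lt_of_lt hlt le_rfl) hN (normSys_saturated hS hF hX) (fSec_normSys.2 h1)).mono
        fun _ _ hf => hf.of_subsys normSys_isSubsystemOf)
  obtain ⟨X0, hX0, hX0S, h0⟩ := h.exists_nMor
  obtain ⟨X, hX, hXS, hn, h1⟩ := key ⊥ bot_le X0 hX0 hX0S bot_le h0
  by_contra hno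
  have hsub : ∀ (T : Subgroup Ω) (D : FusionSystem T), T = S → D.IsSaturated p → D.IsSubsystemOf F →
      ¬ F.IsSubsystemOf D → ¬ FSec p (Mor D) := by
    rintro _ D rfl hD h1 h2 h3
    exact hno ((ih2 D hD h1 h2 h3).mono fun _ _ hf => hf.of_subsys h1)
  have hXn : F.IsNormal X := by_contra fun h2 => hsub _ (normSys F X hXS) hn (normSys_saturated hS hF
    (fullyNormalized_of_normal F hXS (inf_eq_left.1 hn))) normSys_isSubsystemOf
    (mt normal_of_isSubsystemOf_normSys h2) (fSec_normSys.2 h1)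
  have hc0 : F.core ≠ ⊥ := fun h => hX (le_bot_iff.1 (h ▸ le_core hXn))
  have hsame : ProperIn p F (normSys F (centerThompsonAOf S) (hw.le S)) := fun T D hT hD h1 h2 => by
    have h3 := hsub T D hT hD h1 h2
    subst hT
    exact isSubsystemOf_iff.2 fun P f hf => mor_normSys.2 (((isNormal_iff_nMor.1
      (normal_centerThompson_of_not_qdSec hp2 hS hD (mt fSec_of_qdSec h3))).2 P f hf).of_subsys h1)
  have hnn : ¬ F.IsNormal (centerThompsonAOf S) := fun h2 => hno (h.mono (isNormal_iff_nMor.1 h2).2)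
  rcases skeleton_core hS hF hsame with h2 | h2 | ⟨h2, hA⟩
  · exact hnn (normal_of_isSubsystemOf_normSys h2)
  · obtain ⟨G, _, _, T, e, e', he, -, h3⟩ := zj_constrained hp2 hS h2 hsame hnn
    have h5 := he.normSys (hw.le S) (hw.nat hS he.iso) (hw.le _)
    exact hno (fSec_normSys.1 (FSec.lift h5.fac.surj le_rfl le_rfl (fun _ _ => h5.fac.exists_lift)
      (fSec_normSys.2 ((fSec_group_iff (hw.le _)).2 (h3.mono le_rfl ((pCore_le_sylow T).trans
        (le_inf le_rfl (hw.le_normalizer T.isPGroup'))))))))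
  · obtain ⟨Ω', _, S', _, t, F', E', h', hc', hS0, hS', hF', -, H1, H2, -⟩ :=
      quotient_case hS hF (le_inf le_rfl (hw.le_normalizer hS)) hsame hc0 h2 hA
    exact hno (fSec_normSys.1 (FSec.lift h'.surj (normalizerIn_le _ _) le_rfl H2
      ((ih1 F' hc' hS' hF' (h.descend hp2 hS hF (core_normal F) hA h')).mono
        (H1 _ (hw.ne_bot hS' hS0) (hw.le _) (hw.le_normalizer hS')))))

/-- If `Z(J(S))` is not normal in the fusion system, `F(p)` is involved in its normalizer. -/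
theorem involves_fOver_of_not_normal {G : Type*} [Group G] [Finite G] (hp2 : p ≠ 2) (T : Sylow p G)
    (h : ¬ (groupFusionSystem (T : Subgroup G)).IsNormal (centerThompsonAOf (T : Subgroup G))) :
    Involves (fOver (ZMod p)) (Subgroup.normalizer (centerThompsonAOf (T : Subgroup G) : Set G)) :=
  ((fSec_group_iff (ThA.centerThompsonAOf_le _)).1 (FSec.centerThompson hp2 T.isPGroup'
    (Grp.isSaturated T) (fSec_of_qdSec (by_contra fun h' => h (normal_centerThompson_of_not_qdSec hp2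
      T.isPGroup' (Grp.isSaturated T) h'))))).involves hp2 inf_le_right

end CL.ZJF
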